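import Cfsg.Agent.H378.OmD4
import Cfsg.Agent.H172.SIComm
import Cfsg.Agent.H28.FamFour
import Cfsg.Agent.S1067

/-!
# Semisimple elements of `³D₄(q)` (helper92, S2499)

* `ss_3D4` : the order of an element of order prime to `q` divides `(q³ - 1)(q + 1)`, `(q³ + 1)(q - 1)` or `q⁴ - q² + 1`;
* `nonadj` : no element of order `r s`, `r ∣ q² + q + 1`, `s ∣ q² - q + 1`, `r, s ≠ 3` primes;
* `comm_sub` : the `r`-subgroups are commutative, `r ≥ 5`.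
-/

set_option autoImplicit false
set_option linter.unusedSectionVars false

namespace Cfsg.Agent.H92.TD

open Cfsg Cfsg.Lie Cfsg.Lie.ChevalleyDatum
open Cfsg.Agent.H129.TriD4 Cfsg.Agent.H378 Cfsg.Agent.H378.OmD4

universe u

/-- **The semisimple elements.** -/
theorem ss_3D4 {K : Type u} [Field K] [Fintype K] {q : ℕ} (hq : IsPrimePow q) (hK : Fintype.card K = q ^ 3)
    (g : ↥(twistedD4 K q)) (hg : (orderOf g).Coprime q) :
    orderOf g ∣ (q ^ 3 - 1) * (q + 1) ∨ orderOf g ∣ (q ^ 3 + 1) * (q - 1) ∨ orderOf g ∣ q ^ 4 - q ^ 2 + 1 := by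
  obtain ⟨k, _, _, f, p, _, hC, _, hk, hka, -, -⟩ := TorFin.exists_closure K
  have hp : p.Prime := Fact.out
  obtain ⟨p', e, hp', he, hqe'⟩ := id hq
  have hCK : CharP K p := by
    obtain ⟨p'', hp''⟩ := CharP.exists K
    have h1 : CharP k p'' := charP_of_injective_ringHom f.injective p''
    have h2 : p'' = p := CharP.eq k h1 hC
    rwa [h2] at hp''
  have hpp : p' = p := by
    obtain ⟨n, hn⟩ := FiniteField.card K p
    rw [hK, ← hqe'] at hn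
    have h1 : p' ∣ p ^ (n : ℕ) := by
      rw [← hn.2]
      exact dvd_pow (dvd_pow_self p' he.ne') (by norm_num)
    exact (Nat.prime_dvd_prime_iff_eq hp'.nat_prime hp).1 (hp'.nat_prime.dvd_of_dvd_pow h1)
  subst hpp
  have hqe : q = p' ^ e := hqe'.symm
  have hq2 : 2 ≤ q := hq.two_le
  set a := embT (k := k) f hq hK g with ha
  have hσa : tau k p' e a = a := tau_embT f hqe hq hK g
  have hoa : orderOf a = orderOf g := orderOf_injective _ (embT_injective f hq hK) g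
  have hn0 : orderOf g ≠ 0 := (orderOf_pos g).ne'
  have hmp : (orderOf g).Coprime p' := hg.coprime_dvd_right (hqe ▸ dvd_pow_self p' he.ne')
  have key := main (k := k) (p := p') (e := e) hk hka (s := a) (u := 1) hσa (by rw [one_mul, mul_one]) hn0 hmp
    (by rw [← hoa, pow_orderOf_eq_one]) (j := 0) (one_pow _)
  rw [← hqe] at key
  rw [← hoa]
  have e1 : q ^ 4 + q ^ 3 = (q + 1) + (q ^ 3 - 1) * (q + 1) := by
    obtain ⟨d, hd⟩ : ∃ d, q ^ 3 = d + 1 := ⟨q ^ 3 - 1, by have := Nat.one_le_pow 3 q (by omega); omega⟩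
    rw [show q ^ 4 = q ^ 3 * q by ring, hd, Nat.add_sub_cancel]; ring
  have e2 : q ^ 4 + q = (q ^ 3 + 1) + (q ^ 3 + 1) * (q - 1) := by
    obtain ⟨c, rfl⟩ : ∃ c, q = c + 1 := ⟨q - 1, by omega⟩
    rw [Nat.add_sub_cancel]; ring
  have e3 : q ^ 4 + 1 = q ^ 2 + (q ^ 4 - q ^ 2 + 1) := by
    have : q ^ 2 ≤ q ^ 4 := Nat.pow_le_pow_right (by omega) (by norm_num)
    omega
  have e4 : q ^ 2 + 1 = q + (q ^ 2 - q + 1) := by
    have : q ≤ q ^ 2 := by nlinarith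
    omega
  have e5 : q ^ 3 = 1 + (q ^ 3 - 1) := by
    have := Nat.one_le_pow 3 q (by omega)
    omega
  have e6 : q ^ 3 - 1 = (q ^ 2 + q + 1) * (q - 1) := by
    obtain ⟨c, rfl⟩ : ∃ c, q = c + 1 := ⟨q - 1, by omega⟩
    rw [Nat.add_sub_cancel]
    apply Nat.sub_eq_of_eq_add
    ring
  have e7 : q ^ 3 + 1 = (q ^ 2 - q + 1) * (q + 1) := by
    have e8 : q ^ 2 - q = q * (q - 1) := by rw [Nat.mul_sub, mul_one, pow_two]
    obtain ⟨c, rfl⟩ : ∃ c, q = c + 1 := ⟨q - 1, by omega⟩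
    rw [e8, Nat.add_sub_cancel]
    ring
  rcases key with ⟨-, hs | hs | hs⟩ | ⟨hs, -, -⟩ | ⟨-, hs | hs⟩ | ⟨-, hs | hs⟩
  · exact Or.inl (dvd_of_pow_eq hs e1)
  · exact Or.inr (Or.inl (dvd_of_pow_eq hs e2))
  · exact Or.inr (Or.inr (dvd_of_pow_eq hs e3))
  · rw [hs, orderOf_one]; exact Or.inl (one_dvd _)
  · exact Or.inl ((dvd_of_pow_eq (B := 1) (by rw [pow_one]; exact hs) e5).trans (dvd_mul_right _ _))
  · exact Or.inr (Or.inl ((orderOf_dvd_of_pow_eq_one hs).trans (dvd_mul_right _ _)))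
  · refine Or.inl ((orderOf_dvd_of_pow_eq_one hs).trans ?_)
    rw [e6, mul_assoc]; exact dvd_mul_right _ _
  · refine Or.inr (Or.inl ((dvd_of_pow_eq hs e4).trans ?_))
    rw [e7, mul_assoc]; exact dvd_mul_right _ _

/-! ### arithmetic -/

section Arith

variable {q r s : ℕ}

theorem not_dvd_succ (hr : r.Prime) (h : r ∣ q ^ 2 + q + 1) : ¬ r ∣ q + 1 := by
  intro h1
  have h2 : r ∣ q * (q + 1) := Dvd.dvd.mul_left h1 q
  have h3 : q ^ 2 + q + 1 = q * (q + 1) + 1 := by ring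
  rw [h3] at h
  exact hr.one_lt.ne' (Nat.dvd_one.1 ((Nat.dvd_add_right h2).1 h))

theorem three_of_pred (hr : r.Prime) (hq : 1 ≤ q) (h : r ∣ q ^ 2 + q + 1) (h1 : r ∣ q - 1) : r = 3 := by
  obtain ⟨c, rfl⟩ : ∃ c, q = c + 1 := ⟨q - 1, by omega⟩
  rw [Nat.add_sub_cancel] at h1
  have h3 : (c + 1) ^ 2 + (c + 1) + 1 = c * (c + 3) + 3 := by ring
  rw [h3] at h
  exact (Nat.prime_dvd_prime_iff_eq hr Nat.prime_three).1 ((Nat.dvd_add_right (Dvd.dvd.mul_right h1 _)).1 h)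

theorem not_dvd_pred' (hr : r.Prime) (hq : 1 ≤ q) (h : r ∣ q ^ 2 - q + 1) : ¬ r ∣ q - 1 := by
  intro h1
  obtain ⟨c, rfl⟩ : ∃ c, q = c + 1 := ⟨q - 1, by omega⟩
  rw [Nat.add_sub_cancel] at h1
  have h3 : (c + 1) ^ 2 - (c + 1) + 1 = c * (c + 1) + 1 := by
    have : (c + 1) ^ 2 = c * (c + 1) + (c + 1) := by ring
    omega
  rw [h3] at h
  exact hr.one_lt.ne' (Nat.dvd_one.1 ((Nat.dvd_add_right (Dvd.dvd.mul_right h1 _)).1 h))

theorem three_of_succ' (hr : r.Prime) (hq : 1 ≤ q) (h : r ∣ q ^ 2 - q + 1) (h1 : r ∣ q + 1) : r = 3 := by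
  have h2 : r ∣ (q + 1) * (q + 1) := Dvd.dvd.mul_left h1 _
  have h3 : (q + 1) * (q + 1) = (q ^ 2 - q + 1) + 3 * q := by
    have : q ≤ q ^ 2 := Nat.le_self_pow (by norm_num) q
    obtain ⟨d, hd⟩ := Nat.exists_eq_add_of_le this
    have e : q ^ 2 - q = d := by omega
    rw [e]
    nlinarith
  rw [h3] at h2
  rcases (Nat.Prime.dvd_mul hr).1 ((Nat.dvd_add_right h).1 h2) with h4 | h4
  · exact (Nat.prime_dvd_prime_iff_eq hr Nat.prime_three).1 h4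
  · exact absurd ((Nat.dvd_add_right h4).1 h1) (fun h => hr.one_lt.ne' (Nat.dvd_one.1 h))

theorem cop_aux (hr : r.Prime) (hq : 1 ≤ q) (h : r ∣ q ^ 2 + q + 1) : ¬ r ∣ q ^ 2 - q + 1 := by
  intro h1
  have h3 : q ^ 2 + q + 1 = (q ^ 2 - q + 1) + 2 * q := by
    have : q ≤ q ^ 2 := Nat.le_self_pow (by norm_num) q
    omega
  rw [h3] at h
  rcases (Nat.Prime.dvd_mul hr).1 ((Nat.dvd_add_right h1).1 h) with h4 | h4
  · have h5 := (Nat.prime_dvd_prime_iff_eq hr Nat.prime_two).1 h4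
    subst h5
    rw [← h3] at h
    have h6 : Odd (q ^ 2 + q + 1) := by
      have h7 : q ^ 2 + q = q * (q + 1) := by ring
      rw [h7]
      exact (Nat.even_mul_succ_self q).add_one
    exact (Nat.not_even_iff_odd.2 h6) (even_iff_two_dvd.2 h)
  · rw [← h3] at h
    have h5 : r ∣ q * (q + 1) := Dvd.dvd.mul_right h4 _
    have h6 : q ^ 2 + q + 1 = q * (q + 1) + 1 := by ring
    rw [h6] at h
    exact hr.one_lt.ne' (Nat.dvd_one.1 ((Nat.dvd_add_right h5).1 h))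

theorem odd_three (h : r ∣ q ^ 2 + q + 1) : Odd r := by
  have h6 : Odd (q ^ 2 + q + 1) := by
    have h7 : q ^ 2 + q = q * (q + 1) := by ring
    rw [h7]
    exact (Nat.even_mul_succ_self q).add_one
  exact Odd.of_dvd_nat h6 h

theorem odd_six (hq : 1 ≤ q) (h : r ∣ q ^ 2 - q + 1) : Odd r := by
  have h6 : Odd (q ^ 2 - q + 1) := by
    obtain ⟨c, rfl⟩ : ∃ c, q = c + 1 := ⟨q - 1, by omega⟩
    have h3 : (c + 1) ^ 2 - (c + 1) = c * (c + 1) := by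
      have : (c + 1) ^ 2 = c * (c + 1) + (c + 1) := by ring
      omega
    rw [h3]
    exact (Nat.even_mul_succ_self c).add_one
  exact Odd.of_dvd_nat h6 h

/-- `Φ₃` and `Φ₁₂` -/
theorem not_dvd_twelve (hr : r.Prime) (hq : 1 ≤ q) (h : r ∣ q ^ 2 + q + 1) : ¬ r ∣ q ^ 4 - q ^ 2 + 1 := by
  intro h1
  have hle : q ^ 2 ≤ q ^ 4 := Nat.pow_le_pow_right hq (by norm_num)
  have h2 : ((q ^ 4 - q ^ 2 + 1 : ℕ) : ℤ) = (q : ℤ) ^ 4 - (q : ℤ) ^ 2 + 1 := by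
    push_cast [Nat.cast_sub hle]; ring
  have h3 : (r : ℤ) ∣ (q : ℤ) ^ 4 - (q : ℤ) ^ 2 + 1 := by rw [← h2]; exact Int.natCast_dvd_natCast.2 h1
  have h4 : (r : ℤ) ∣ (q : ℤ) ^ 2 + (q : ℤ) + 1 := by
    have := Int.natCast_dvd_natCast.2 h
    push_cast at this
    exact this
  have h5 : (r : ℤ) ∣ ((2 * (q + 1) : ℕ) : ℤ) := by
    have e : ((2 * (q + 1) : ℕ) : ℤ) = ((q : ℤ) ^ 4 - (q : ℤ) ^ 2 + 1) -
        ((q : ℤ) ^ 2 + (q : ℤ) + 1) * ((q : ℤ) ^ 2 - (q : ℤ) - 1) := by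
      push_cast; ring
    rw [e]
    exact dvd_sub h3 (Dvd.dvd.mul_right h4 _)
  rcases (Nat.Prime.dvd_mul hr).1 (Int.natCast_dvd_natCast.1 h5) with h6 | h6
  · have h7 := (Nat.prime_dvd_prime_iff_eq hr Nat.prime_two).1 h6
    have h8 := odd_three h
    rw [h7] at h8
    exact absurd h8 (by decide)
  · exact not_dvd_succ hr h h6

/-- `Φ₆` and `Φ₁₂` -/
theorem not_dvd_twelve' (hr : r.Prime) (hq : 1 ≤ q) (h : r ∣ q ^ 2 - q + 1) : ¬ r ∣ q ^ 4 - q ^ 2 + 1 := by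
  intro h1
  have hle : q ^ 2 ≤ q ^ 4 := Nat.pow_le_pow_right hq (by norm_num)
  have hle' : q ≤ q ^ 2 := Nat.le_self_pow (by norm_num) q
  have h2 : ((q ^ 4 - q ^ 2 + 1 : ℕ) : ℤ) = (q : ℤ) ^ 4 - (q : ℤ) ^ 2 + 1 := by
    push_cast [Nat.cast_sub hle]; ring
  have h3 : (r : ℤ) ∣ (q : ℤ) ^ 4 - (q : ℤ) ^ 2 + 1 := by rw [← h2]; exact Int.natCast_dvd_natCast.2 h1
  have h4 : (r : ℤ) ∣ (q : ℤ) ^ 2 - (q : ℤ) + 1 := by
    have := Int.natCast_dvd_natCast.2 h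
    rw [Nat.cast_add, Nat.cast_sub hle'] at this
    push_cast at this
    exact this
  have h5 : (r : ℤ) ∣ ((2 * (q - 1) : ℕ) : ℤ) := by
    have e : ((2 * (q - 1) : ℕ) : ℤ) = -(((q : ℤ) ^ 4 - (q : ℤ) ^ 2 + 1) -
        ((q : ℤ) ^ 2 - (q : ℤ) + 1) * ((q : ℤ) ^ 2 + (q : ℤ) - 1)) := by
      push_cast [Nat.cast_sub hq]; ring
    rw [e]
    exact (dvd_sub h3 (Dvd.dvd.mul_right h4 _)).neg_right
  rcases (Nat.Prime.dvd_mul hr).1 (Int.natCast_dvd_natCast.1 h5) with h6 | h6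
  · have h7 := (Nat.prime_dvd_prime_iff_eq hr Nat.prime_two).1 h6
    have h8 := odd_six hq h
    rw [h7] at h8
    exact absurd h8 (by decide)
  · exact not_dvd_pred' hr hq h h6

theorem not_dvd_q (hr : r.Prime) (h : r ∣ q ^ 2 + q + 1) : ¬ r ∣ q := by
  intro h1
  have h3 : q ^ 2 + q + 1 = q * (q + 1) + 1 := by ring
  rw [h3] at h
  exact hr.one_lt.ne' (Nat.dvd_one.1 ((Nat.dvd_add_right (Dvd.dvd.mul_right h1 _)).1 h))

theorem not_dvd_q' (hr : r.Prime) (hq : 1 ≤ q) (h : r ∣ q ^ 2 - q + 1) : ¬ r ∣ q := by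
  intro h1
  have h3 : q ^ 2 - q = q * (q - 1) := by rw [Nat.mul_sub, mul_one, pow_two]
  rw [h3] at h
  exact hr.one_lt.ne' (Nat.dvd_one.1 ((Nat.dvd_add_right (Dvd.dvd.mul_right h1 _)).1 h))

end Arith

/-- **The primes of `q² + q + 1` and `q² - q + 1` are not adjacent.** -/
theorem nonadj {K : Type u} [Field K] [Fintype K] {q : ℕ} (hq : IsPrimePow q) (hK : Fintype.card K = q ^ 3)
    {r s : ℕ} (hr : r.Prime) (hs : s.Prime) (hr3 : r ≠ 3) (hs3 : s ≠ 3) (hrN : r ∣ q ^ 2 + q + 1)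
    (hsN : s ∣ q ^ 2 - q + 1) {x y : ↥(twistedD4 K q)} (hx : orderOf x = r) (hy : orderOf y = s)
    (h : Commute x y) : False := by
  have hq1 : 1 ≤ q := hq.pos
  have hrs : r ≠ s := fun h => cop_aux hr hq1 hrN (h ▸ hsN)
  have hcop : r.Coprime s := (Nat.coprime_primes hr hs).2 hrs
  have ho : orderOf (x * y) = r * s := by
    rw [h.orderOf_mul_eq_mul_orderOf_of_coprime (by rw [hx, hy]; exact hcop), hx, hy]
  have hg : (orderOf (x * y)).Coprime q := by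
    rw [ho]
    exact Nat.Coprime.mul_left ((Nat.Prime.coprime_iff_not_dvd hr).2 (not_dvd_q hr hrN))
      ((Nat.Prime.coprime_iff_not_dvd hs).2 (not_dvd_q' hs hq1 hsN))
  have e6 : q ^ 3 - 1 = (q ^ 2 + q + 1) * (q - 1) := by
    obtain ⟨c, rfl⟩ : ∃ c, q = c + 1 := ⟨q - 1, by omega⟩
    rw [Nat.add_sub_cancel]
    apply Nat.sub_eq_of_eq_add
    ring
  have e7 : q ^ 3 + 1 = (q ^ 2 - q + 1) * (q + 1) := by
    have e8 : q ^ 2 - q = q * (q - 1) := by rw [Nat.mul_sub, mul_one, pow_two]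
    obtain ⟨c, rfl⟩ : ∃ c, q = c + 1 := ⟨q - 1, by omega⟩
    rw [e8, Nat.add_sub_cancel]
    ring
  rcases ss_3D4 hq hK (x * y) hg with h1 | h1 | h1
  · rw [ho, e6] at h1
    have h2 : s ∣ (q ^ 2 + q + 1) * (q - 1) * (q + 1) := (dvd_mul_left s r).trans h1
    rcases (Nat.Prime.dvd_mul hs).1 h2 with h3 | h3
    · rcases (Nat.Prime.dvd_mul hs).1 h3 with h4 | h4
      · exact cop_aux hs hq1 h4 hsN
      · exact not_dvd_pred' hs hq1 hsN h4
    · exact hs3 (three_of_succ' hs hq1 hsN h3)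
  · rw [ho, e7] at h1
    have h2 : r ∣ (q ^ 2 - q + 1) * (q + 1) * (q - 1) := (dvd_mul_right r s).trans h1
    rcases (Nat.Prime.dvd_mul hr).1 h2 with h3 | h3
    · rcases (Nat.Prime.dvd_mul hr).1 h3 with h4 | h4
      · exact cop_aux hr hq1 hrN h4
      · exact not_dvd_succ hr hrN h4
    · exact hr3 (three_of_pred hr hq1 hrN h3)
  · rw [ho] at h1
    exact not_dvd_twelve hr hq1 hrN ((dvd_mul_right r s).trans h1)

/-- **The `r`-subgroups are commutative.** -/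
theorem comm_sub {K : Type} [Field K] [Fintype K] {q : ℕ} (hK : Fintype.card K = q ^ 3) {r : ℕ} (hr : r.Prime)
    (h5 : 5 ≤ r) (hrq : ¬ r ∣ q) (E : Subgroup ↥(twistedD4 K q)) (hE : IsPGroup r E) :
    ∀ a ∈ E, ∀ b ∈ E, a * b = b * a := by
  have : Fact r.Prime := ⟨hr⟩
  have hpK : ¬ r ∣ Fintype.card K := by
    rw [hK]
    exact fun h => hrq (hr.dvd_of_dvd_pow h)
  have hnd : ∀ x ∈ [2, 4, 4, 6], ¬ r ∣ x := by
    intro x hx h1
    have h2 : ∀ x ∈ [2, 4, 4, 6], x ∣ (Nat.factorial 4) ^ 3 := by decide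
    have h3 := (hr.dvd_factorial).1 (hr.dvd_of_dvd_pow (h1.trans (h2 x hx)))
    omega
  obtain ⟨ι, hι⟩ : ∃ ι : ↥(twistedD4 K q) →* ↥(chevD4.group K), Function.Injective ι :=
    ⟨_, Subgroup.inclusion_injective (H28.FamFour.twisted_le_group q)⟩
  intro a ha b hb
  have h1 := H172.SI.deg_D4.comm (p := r) hnd hpK (E.map ι) (hE.map _) _ (Subgroup.mem_map_of_mem _ ha) _
    (Subgroup.mem_map_of_mem _ hb)
  rw [← map_mul, ← map_mul] at h1
  exact hι h1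

end Cfsg.Agent.H92.TD
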