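import Cfsg.Agent.H349.KD4.Num

/-!
# Excluding alternating, sporadic and cross characteristic groups (helper92, S2499)

Everything from `r ^ (a + 1) ∣ c` for the prime powers `r ^ a ∣ q² ± q + 1`, `r ≠ 3`.
-/

set_option autoImplicit false
set_option exponentiation.threshold 700

namespace Cfsg.Agent.H92.TD

open Cfsg.Agent.H902 Cfsg.Agent.H290.ElReg Cfsg.Agent.H290.ElTab Cfsg.Agent.H290.ElCross Cfsg.Agent.H563.KG
open Cfsg.Agent.H436 (Prim)

/-! ### arithmetic -/

section Arith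

variable {q r : ℕ}

theorem odd_shape (q : ℕ) : Odd (q ^ 2 + q + 1) := by
  have h7 : q ^ 2 + q = q * (q + 1) := by ring
  rw [h7]
  exact (Nat.even_mul_succ_self q).add_one

/-- `r ≡ 1 (mod 6)` -/
theorem mod_six (hr : r.Prime) (h3 : r ≠ 3) (h : r ∣ q ^ 2 + q + 1) : r % 6 = 1 := by
  have := Fact.mk hr
  have h2 : Odd r := Odd.of_dvd_nat (odd_shape q) h
  have hz : (q : ZMod r) ^ 2 + (q : ZMod r) + 1 = 0 := by
    have := (ZMod.natCast_eq_zero_iff _ _).2 h
    push_cast at this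
    exact this
  have hq3 : (q : ZMod r) ^ 3 = 1 := by linear_combination ((q : ZMod r) - 1) * hz
  have hq1 : (q : ZMod r) ≠ 1 := by
    intro h1
    rw [h1] at hz
    have h4 : ((3 : ℕ) : ZMod r) = 0 := by push_cast; linear_combination hz
    rw [ZMod.natCast_eq_zero_iff] at h4
    exact h3 ((Nat.prime_dvd_prime_iff_eq hr Nat.prime_three).1 h4)
  have hq0 : (q : ZMod r) ≠ 0 := by
    intro h1
    rw [h1] at hq3
    exact absurd hq3 (by simp)
  have ho : orderOf (q : ZMod r) = 3 := by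
    have := Fact.mk Nat.prime_three
    exact orderOf_eq_prime hq3 hq1
  have h4 := ZMod.orderOf_dvd_card_sub_one hq0
  rw [ho] at h4
  have h5 := hr.two_le
  have h6 := Nat.odd_iff.1 h2
  omega

theorem nine_not_dvd (q : ℕ) : ¬ 9 ∣ q ^ 2 + q + 1 := by
  intro h
  have h1 : (q ^ 2 + q + 1) % 9 = 0 := Nat.mod_eq_zero_of_dvd h
  have h4 : ∀ x < 9, (x ^ 2 + x + 1) % 9 ≠ 0 := by decide
  have h6 := h4 (q % 9) (Nat.mod_lt _ (by norm_num))
  rw [← h1] at h6
  exact h6 (by simp [Nat.add_mod, Nat.pow_mod])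

theorem exists_ne_three {n : ℕ} (h9 : ¬ 9 ∣ n) (h : 3 < n) : ∃ r, r.Prime ∧ r ≠ 3 ∧ r ∣ n := by
  by_contra hcon
  push Not at hcon
  have h1 := Nat.eq_prime_pow_of_unique_prime_dvd (n := n) (p := 3) (by omega) (fun {d} hd hdn => by
    by_contra h3
    exact hcon d hd h3 hdn)
  rcases Nat.lt_or_ge n.primeFactorsList.length 2 with h2 | h2
  · have h3 : n ≤ 3 ^ 1 := by
      rw [h1]
      exact Nat.pow_le_pow_right (by norm_num) (by omega)
    omega
  · apply h9
    rw [h1]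
    exact pow_dvd_pow 3 h2

end Arith

/-! ### alternating groups -/

theorem two_mul_le_of_sq {r n : ℕ} (hr : r.Prime) (h : r ^ 2 ∣ n.factorial) : 2 * r ≤ n := by
  by_contra hcon
  have h2 := hr.two_le
  have hlt : n < r ^ 2 := by nlinarith
  have hlog : Nat.log r n < 2 := by
    rcases Nat.eq_zero_or_pos n with rfl | hn
    · simp
    · exact Nat.log_lt_of_lt_pow (by omega) hlt
  rw [hr.pow_dvd_factorial_iff hlog] at h
  have h3 : ∑ i ∈ Finset.Ico 1 2, n / r ^ i = n / r := by simp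
  rw [h3] at h
  have h4 : n / r < 2 := Nat.div_lt_of_lt_mul (by omega)
  omega

theorem alt_elim {S : Type*} [Group S] [Finite S] {r s k : ℕ} (hr : r.Prime) (hs : s.Prime) (hr2 : Odd r)
    (hs2 : Odd s) (hrs : r ≠ s) (h1 : r ^ 2 ∣ Nat.card S) (h2 : s ^ 2 ∣ Nat.card S)
    (hno : ∀ x y : S, orderOf x = r → orderOf y = s → ¬ Commute x y) (Φ : S ≃* alternatingGroup (Fin k)) : False := by
  have hcard : Nat.card S ∣ k.factorial := by
    rw [Nat.card_congr Φ.toEquiv]
    have h3 := Subgroup.card_subgroup_dvd_card (alternatingGroup (Fin k))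
    rwa [Nat.card_perm, Nat.card_fin] at h3
  have h3 := two_mul_le_of_sq hr (h1.trans hcard)
  have h4 := two_mul_le_of_sq hs (h2.trans hcard)
  obtain ⟨σ, hσ⟩ := (Equiv.Perm.exists_with_cycleType_iff (Fin k) (m := {r, s})).2 ⟨by
    simp only [Multiset.insert_eq_cons, Multiset.sum_cons, Multiset.sum_singleton, Fintype.card_fin]
    omega, by
    intro a ha
    simp only [Multiset.insert_eq_cons, Multiset.mem_cons, Multiset.mem_singleton] at ha
    rcases ha with rfl | rfl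
    · exact hr.two_le
    · exact hs.two_le⟩
  have hcop : r.Coprime s := (Nat.coprime_primes hr hs).2 hrs
  have ho : orderOf σ = r * s := by
    rw [← Equiv.Perm.lcm_cycleType, hσ]
    simp only [Multiset.insert_eq_cons, Multiset.lcm_cons, Multiset.lcm_singleton, normalize_eq]
    exact hcop.lcm_eq_mul
  have hA : σ ∈ alternatingGroup (Fin k) := by
    rw [Equiv.Perm.mem_alternatingGroup, Equiv.Perm.sign_of_cycleType, hσ]
    have h5 : Even (r + s + 2) := (hr2.add_odd hs2).add (by decide)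
    simp only [Multiset.insert_eq_cons, Multiset.sum_cons, Multiset.sum_singleton, Multiset.card_cons,
      Multiset.card_singleton]
    exact h5.neg_one_pow
  have hoS : orderOf (Φ.symm ⟨σ, hA⟩) = r * s := by
    rw [MulEquiv.orderOf_eq, Subgroup.orderOf_mk, ho]
  set τ := Φ.symm ⟨σ, hA⟩ with hτ
  refine hno (τ ^ s) (τ ^ r) ?_ ?_ ((Commute.refl τ).pow_pow s r)
  · rw [orderOf_pow_of_dvd hs.ne_zero (by rw [hoS]; exact dvd_mul_left s r), hoS, Nat.mul_div_cancel _ hs.pos]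
  · rw [orderOf_pow_of_dvd hr.ne_zero (by rw [hoS]; exact dvd_mul_right r s), hoS, Nat.mul_div_cancel_left _ hr.pos]

/-! ### cross characteristic -/

def sqReg : Bool := (reg 8).all fun x => (pd (NS x.1 x.2.1 x.2.2)).all fun r =>
  !(Nat.ble 7 r && (r % 6 == 1 && OL x.1 (x.2.1 ^ x.2.2) % r ^ 2 == 0))

theorem sqReg_true : sqReg = true := by decide +kernel

/-- **Cross characteristic**: one prime suffices. -/
theorem cross_elim {X : Art.Sh} {l a N : ℕ} (hR : Art.Real X l a N) (hlb : lb X (l ^ a) ≤ 8) {r : ℕ} (hr : r.Prime)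
    (h7 : 7 ≤ r) (h6 : r % 6 = 1) (hd : r ^ 2 ∣ N) : False := by
  obtain ⟨hl, ha, hokX, heq⟩ := hR
  have hreg := mem_reg (by norm_num) hl ha hokX hlb
  have hs' : smooth (NA X l a) = true :=
    List.all_eq_true.1 smooth_reg (X, (l, a)) (mem_reg le_rfl hl ha hokX (hlb.trans (by norm_num)))
  have hsS : smooth (NS X l a) = true := by
    have h1 : NS X l a ∣ NA X l a := Dvd.intro_left _ rfl
    have h2 : NA X l a ∣ prs.prod ^ 100 := Nat.dvd_of_mod_eq_zero (by simpa [smooth] using hs')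
    simpa [smooth] using Nat.mod_eq_zero_of_dvd (h1.trans h2)
  have hM : OL X (l ^ a) = Art.dd X (l ^ a) * N := by unfold OL; rw [numL_eq]; exact heq.symm
  have hNM : N ∣ OL X (l ^ a) := Dvd.intro_left _ hM.symm
  have hNS : r ∣ NS X l a := by
    unfold NS
    have h1 : r ∣ (l ^ a) ^ Art.NN X * numL X (l ^ a) := ((dvd_pow_self r (by norm_num)).trans hd).trans hNM
    rcases hr.dvd_mul.1 h1 with h2 | h2
    · exact (hr.dvd_of_dvd_pow (hr.dvd_of_dvd_pow h2)).mul_right _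
    · exact h2.mul_left _
  have h1 := List.all_eq_true.1 (List.all_eq_true.1 sqReg_true _ hreg) r (mem_pd hsS hr hNS)
  have h2 : OL X (l ^ a) % r ^ 2 = 0 := Nat.mod_eq_zero_of_dvd (hd.trans hNM)
  have h3 : Nat.ble 7 r = true := Nat.ble_eq_true_of_le h7
  simp [h3, h6, h2] at h1

/-! ### sporadic groups -/

/-- the order of the Monster -/
def mo : ℕ := 808017424794512875886459904961710757005754368000000000

def sqSpor : Bool := Cfsg.Agent.OrdDiv.spor.all fun x => (pd x.2).all fun r =>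
  !(Nat.ble 7 r && (r % 6 == 1 && x.2 % r ^ 2 == 0)) || (r == 7 || (r == 13 && x.2 == mo))

theorem sqSpor_true : sqSpor = true := by decide +kernel

theorem spor_cases {x : Cfsg.Agent.OrdDiv.Grp × ℕ} (hx : x ∈ Cfsg.Agent.OrdDiv.spor) {r : ℕ} (hr : r.Prime)
    (h7 : 7 ≤ r) (h6 : r % 6 = 1) (hd : r ^ 2 ∣ x.2) : r = 7 ∨ (r = 13 ∧ x.2 = mo) := by
  have hs' : smooth x.2 = true := List.all_eq_true.1 smooth_spor x hx
  have h1 := List.all_eq_true.1 (List.all_eq_true.1 sqSpor_true _ hx) r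
    (mem_pd hs' hr ((dvd_pow_self r (by norm_num)).trans hd))
  have h2 : x.2 % r ^ 2 = 0 := Nat.mod_eq_zero_of_dvd hd
  have h3 : Nat.ble 7 r = true := Nat.ble_eq_true_of_le h7
  simpa [h3, h6, h2] using h1

/-- `r ^ a ∣ N` implies `r ^ (a + 1) ∣ c` -/
def Pw (N c : ℕ) : Prop := ∀ r a, r.Prime → r ≠ 3 → 1 ≤ a → r ^ a ∣ N → r ^ (a + 1) ∣ c

theorem seven_of {q r : ℕ} (hr : r.Prime) (h3 : r ≠ 3) (h : r ∣ q ^ 2 + q + 1) : 7 ≤ r := by
  have h1 := mod_six hr h3 h
  have h2 := hr.two_le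
  omega

/-- the number without the prime 7 is small -/
theorem dvd_507 {q : ℕ} {x : Cfsg.Agent.OrdDiv.Grp × ℕ} (hx : x ∈ Cfsg.Agent.OrdDiv.spor) (hmo : x.2 = mo)
    (hP : Pw (q ^ 2 + q + 1) x.2) (h7 : ¬ 7 ∣ q ^ 2 + q + 1) : q ^ 2 + q + 1 ∣ 507 := by
  rw [Nat.dvd_iff_prime_pow_dvd_dvd]
  intro t k ht hk
  rcases Nat.eq_zero_or_pos k with rfl | hk0
  · rw [pow_zero]; exact one_dvd _
  by_cases h3 : t = 3
  · subst h3
    have h1 : k < 2 := by
      by_contra hcon
      exact nine_not_dvd q ((pow_dvd_pow 3 (by omega : 2 ≤ k)).trans hk)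
    obtain rfl : k = 1 := by omega
    norm_num
  have htN : t ∣ q ^ 2 + q + 1 := (dvd_pow_self t (by omega)).trans hk
  have h1 := hP t k ht h3 hk0 hk
  have h2 := (pow_dvd_pow t (by omega : 2 ≤ k + 1)).trans h1
  rcases spor_cases hx ht (seven_of ht h3 htN) (mod_six ht h3 htN) h2 with h4 | ⟨h4, -⟩
  · rw [h4] at htN
    exact absurd htN h7
  · subst h4
    rw [hmo] at h1
    have h5 : k < 3 := by
      by_contra hcon
      have h6 := (pow_dvd_pow 13 (by omega : 4 ≤ k + 1)).trans h1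
      exact absurd h6 (by decide)
    have h6 : (13 : ℕ) ^ k ∣ 13 ^ 2 := pow_dvd_pow 13 (by omega)
    exact h6.trans (by norm_num)

theorem small_td4 {q : ℕ} (hq : q ≤ 23) : OL .TD4 q < mo := by
  have h1 : OL .TD4 q ∣ OL .TD4 q := dvd_rfl
  interval_cases q <;> decide

end Cfsg.Agent.H92.TD
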