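import Cfsg.Agent.H378.TwAdj
import Cfsg.Agent.H378.CycTab
import Cfsg.Agent.H129.TorusCent

/-!
# Regular elements of prime order of `³D₄(q)` in the tori of order `(q² ± q + 1)²` (helper92, S2499)

* `RegE G l N r x` : `x` has order `r`, its centralizer is abelian of exponent dividing `N` and has at most `s ^ l` elements
  of order dividing `s`;
* `exists_reg3`, `exists_reg6` : such elements of `³D₄(q)`, `r ≥ 5` a prime divisor of `N = q² + q + 1` or
  `N = q² - q + 1`.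
-/

set_option autoImplicit false
set_option linter.unusedSectionVars false

namespace Cfsg.Agent.H92.TD

open CoxeterSystem Cfsg Cfsg.Lie Cfsg.Lie.ChevalleyDatum
open Cfsg.Agent.ChevalleyStructure Cfsg.Agent.ChevalleyStructure.Elts Cfsg.Agent.ChevalleyStructure.CoxeterGeom
  Cfsg.Agent.ChevalleyStructure.CoxeterGeomTypes Cfsg.Agent.ChevalleyStructure.NPerm
open Cfsg.Agent.Tits.Roots Cfsg.Agent.Tits.Core Cfsg.Agent.Nodes Cfsg.Agent.Nodes.Reps Cfsg.Agent.Nodes.BNOf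
  Cfsg.Agent.Nodes.RGDChev Cfsg.Agent.Nodes.Bruhat Cfsg.Agent.Nodes.SubComb Cfsg.Agent.Nodes.Coroot
open Cfsg.Agent.KFacts.RgdField Cfsg.Agent.KFacts.RgdChevCoord Cfsg.Agent.BpExc.TorCent Cfsg.Agent.BpExc.TorChev
open Cfsg.Agent.GpExc.Field Cfsg.Agent.BpExc.Tow Cfsg.Agent.BpExc.TowChev Cfsg.Agent.BpExc.Fr
  Cfsg.Agent.BpExc.LangFr Cfsg.Agent.LangThm Cfsg.Agent.BpExc Cfsg.Agent.H129.TorusChar Cfsg.Agent.H129.TorusCent
  Cfsg.Agent.H129.TorusTw Cfsg.Agent.H129.TorusMain Cfsg.Agent.H493.PGTorus Cfsg.Agent.H493.PGTwist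
open Cfsg.Agent.H129 Cfsg.Agent.H129.WData Cfsg.Agent.H129.TriD4 Cfsg.Agent.H378.CycTab

universe u

/-- a regular element of order `r` in a torus of exponent `N` -/
structure RegE (G : Type*) [Group G] (l N r : ℕ) (x : G) : Prop where
  ord : orderOf x = r
  pow : ∀ y : G, y * x = x * y → y ^ N = 1
  comm : ∀ y z : G, y * x = x * y → z * x = x * z → y * z = z * y
  tors : ∀ s : ℕ, s.Prime → Nat.card {y : G // y * x = x * y ∧ y ^ s = 1} ≤ s ^ l

section Alg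

variable {D : ChevalleyDatum} {l : ℕ} {M : CoxeterMatrix (Fin l)} (hp : IsType D l M) {k : Type u} [Field k]
  [IsAlgClosed k] {W : Type*} [Group W] (cs : CoxeterSystem M W) {p e : ℕ} [Fact p.Prime] [CharP k p]
  {σ : MulAut ↥(D.group k)} {g : (Fin l → ℤ) ≃+ (Fin l → ℤ)}

/-- torus elements with all the characters -/
theorem exists_t' (hσ : IsFrob p e σ) (F : Fr cs hp.isCartan (TT D k) (XX D l k) σ g) {d' : ℕ}
    {B' : Fin l → Fin l → ℤ} (hB : InvC D l d' B') (hd' : d' ≠ 0) {L : (Fin l → ℤ) →+ ℤ} {r : ℕ} (hr : r.Prime)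
    (hrp : r ≠ p) (hL : ∀ x, (r : ℤ) ∣ L (g x) - ((p ^ e : ℕ) : ℤ) * L x) {x₀ : Fin l → ℤ} (hx₀ : ¬ (r : ℤ) ∣ L x₀) :
    ∃ t ∈ TT D k, σ t = t ∧ orderOf t = r ∧ ∀ x, (r : ℤ) ∣ L x ↔ cX hp t x = 1 := by
  have := Fact.mk hr
  have hrk : (r : k) ≠ 0 := by
    rw [Ne, CharP.cast_eq_zero_iff k p]
    intro h
    exact hrp ((Nat.prime_dvd_prime_iff_eq (Fact.out : p.Prime) hr).1 h).symm
  have : NeZero (r : k) := ⟨hrk⟩
  obtain ⟨u, hu⟩ := HasEnoughRootsOfUnity.exists_primitiveRoot k r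
  have hu0 : u ≠ 0 := hu.ne_zero hr.ne_zero
  have hMC : IsMC (fun x : Fin l → ℤ => u ^ L x) :=
    ⟨by rw [map_zero, zpow_zero], fun x y => by rw [map_add, zpow_add₀ hu0]⟩
  obtain ⟨t, ht, hcX⟩ := exists_cX hp hB hd' hMC fun i =>
    IsAlgClosed.exists_pow_nat_eq _ (Nat.pos_of_ne_zero hd')
  have hone : ∀ z : ℤ, u ^ z = 1 ↔ (r : ℤ) ∣ z := fun z => hu.zpow_eq_one_iff_dvd z
  have hσt : σ t ∈ TT D k := (F.tor t).2 ht
  refine ⟨t, ht, ?_, ?_, fun x => ?_⟩
  · refine cX_inj hp hσt ht fun i => ?_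
    have h1 : sr i = g (g.symm (sr i)) := (g.apply_symm_apply _).symm
    rw [h1, cX_sigma hp cs hσ F ht, hcX, hcX, ← zpow_natCast, ← zpow_mul]
    obtain ⟨N, hN⟩ := hL (g.symm (sr i))
    have h2 : L (g (g.symm (sr i))) = L (g.symm (sr i)) * ((p ^ e : ℕ) : ℤ) + (r : ℤ) * N := by
      rw [← hN]; ring
    rw [h2, zpow_add₀ hu0, (hone ((r : ℤ) * N)).2 (dvd_mul_right _ _), mul_one]
  · refine orderOf_eq_prime ?_ ?_
    · refine cX_inj hp (pow_mem ht r) (one_mem _) fun i => ?_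
      rw [cX_pow hp ht, cX_one, hcX, ← zpow_natCast, ← zpow_mul, hone]
      exact dvd_mul_left _ _
    · intro h0
      apply hx₀
      rw [← hone, ← hcX, h0, cX_one]
  · rw [hcX]; exact (hone _).symm

variable {G0 : Type*} [Group G0] {e0 : G0 →* ↥(D.group k)}

/-- **The general theorem.** -/
theorem reg_of [Finite W] (hk : LocFin k) (he : 0 < e) (hσ : IsFrob p e σ)
    (F : Fr cs hp.isCartan (TT D k) (XX D l k) σ g) {d' : ℕ} {B' : Fin l → Fin l → ℤ} (hB : InvC D l d' B')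
    (hd' : d' ≠ 0) (he0 : Function.Injective e0) (hfix : ∀ y, σ (e0 y) = e0 y)
    (hd : ∀ y, σ y = y → y ∈ e0.range)
    {w : W} {Th : Fin l → Fin l → ℤ} (hw : ∀ j, rep cs hp.isCartan w (g (sr j)) = Th j)
    {c : Fin 2 → ℤ} {V : Fin 2 → Fin l → ℤ} {U : Fin l → ℤ}
    (h : EigOK (f := 1) (fun i j => Th j i) c V U) (hc0 : c 0 = 1)
    (hTh2 : ∀ j m, ∑ i, Th j i * Th i m + c 1 * Th j m + (if j = m then 1 else 0) = 0)
    (hnorm : ∀ a, IsRoot cs hp.isCartan a → ∃ A B : ℤ, lam V ((p ^ e : ℕ) : ℤ) a = A + B * ((p ^ e : ℕ) : ℤ) ∧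
      (A * A - c 1 * A * B + B * B = 1 ∨ A * A - c 1 * A * B + B * B = 3)) (hc1 : c 1 = 1 ∨ c 1 = -1)
    {r : ℕ} (hr : r.Prime) (h5 : 5 ≤ r) (hrW : ¬ r ∣ Nat.card W)
    {N : ℕ} (hN : (N : ℤ) = pv c ((p ^ e : ℕ) : ℤ)) (hrN : r ∣ N) : ∃ x : G0, RegE G0 l N r x := by
  set q : ℤ := ((p ^ e : ℕ) : ℤ) with hq
  have hpv : pv c q = q ^ 2 + c 1 * q + 1 := by
    simp only [pv, Fin.sum_univ_two, Fin.isValue, Fin.val_zero, pow_zero, mul_one, Fin.val_one, pow_one, hc0]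
    ring
  have h1 : (r : ℤ) ∣ pv c q := by rw [← hN]; exact Int.natCast_dvd_natCast.2 hrN
  obtain ⟨n, z, hz, hσ', F'⟩ := exists_z hp cs hk he hσ F w
  obtain ⟨t, ht, h3, h4, h5'⟩ := exists_t' hp cs hσ' F' hB hd' hr (ne_char (Or.inl hc0) Fact.out he h1)
    (hL_of_eig hp cs hw h h1) (x₀ := U) (by rw [lam_unit h]; exact H378.TwAdj.not_dvd_one hr)
  -- `t` is regular
  have hreg : ∀ a, IsRoot cs hp.isCartan a → cX hp t a ≠ 1 := by
    intro a ha h6
    rw [← h5'] at h6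
    obtain ⟨A, B, e1, e2⟩ := hnorm a ha
    rw [e1] at h6
    have h7 : (r : ℤ) ∣ A * A - c 1 * A * B + B * B := by
      have h8 : A * A - c 1 * A * B + B * B = (A + B * q) * (A - B * (q + c 1)) + B * B * pv c q := by
        rw [hpv]; ring
      rw [h8]
      exact dvd_add (dvd_mul_of_dvd_left h6 _) (dvd_mul_of_dvd_right h1 _)
    have h8 : (r : ℤ) ∣ 3 := by
      rcases e2 with e2 | e2
      · rw [e2] at h7
        exact absurd h7 (H378.TwAdj.not_dvd_one hr)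
      · rwa [e2] at h7
    have h9 := Int.le_of_dvd (by norm_num) h8
    omega
  have htr : ∀ a, cX hp t a ^ r = 1 := fun a => by
    rw [← cX_pow hp ht, ← h4, pow_orderOf_eq_one, cX_one]
  have hcent : ∀ y : ↥(D.group k), y * t = t * y → y ∈ TT D k := by
    intro y hy
    refine mem_TT_of_comm hp cs ht hk p hreg (fun w hw => ?_) hy
    have hE : {a | IsRoot cs hp.isCartan a ∧ cX hp t a ^ 1 = 1} = ∅ := by
      rw [Set.eq_empty_iff_forall_notMem]
      rintro a ⟨ha, ha1⟩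
      exact hreg a ha (by rwa [pow_one] at ha1)
    refine stab_eq_one hp cs ht hk p (m := 1) hr hrW (fun a _ => by rw [one_mul]; exact htr a) (fun a ha h1 => ?_) ?_ hw
    · exact absurd (by rwa [pow_one] at h1) (hreg a ha)
    · rw [hE]
      intro a ha
      exact absurd ha (Set.notMem_empty a)
  obtain ⟨x, hx⟩ := hd _ (fix_conj hz h3)
  -- the torus
  have hmem : ∀ y : G0, y * x = x * y → z⁻¹ * e0 y * z ∈ TT D k ∧
      (MulAut.conj n * σ) (z⁻¹ * e0 y * z) = z⁻¹ * e0 y * z := by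
    intro y hy
    constructor
    · apply hcent
      have h6 := congrArg e0 hy
      rw [map_mul, map_mul, hx] at h6
      calc z⁻¹ * e0 y * z * t = z⁻¹ * (e0 y * (z * t * z⁻¹)) * z := by group
        _ = z⁻¹ * (z * t * z⁻¹ * e0 y) * z := by rw [h6]
        _ = _ := by group
    · show n * σ (z⁻¹ * e0 y * z) * n⁻¹ = _
      rw [map_mul, map_mul, map_inv, hfix, hz]
      group
  have hrel : ∀ s ∈ TT D k, (MulAut.conj n * σ) s = s → ∀ b, cX hp s b ^ N = 1 := by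
    intro s hs hsσ b
    have e1 : ∀ b, cX hp s ((g.trans (repAut cs hp.isCartan w)) b) = cX hp s b ^ p ^ e := by
      intro b
      have h6 := cX_sigma hp cs hσ' F' hs b
      rwa [hsσ] at h6
    have hmc := isMC_cX hp hs
    have e2 : (g.trans (repAut cs hp.isCartan w)) ((g.trans (repAut cs hp.isCartan w)) b) +
        c 1 • (g.trans (repAut cs hp.isCartan w)) b + b = 0 := by
      have h6 : ∀ b : Fin l → ℤ, (g.trans (repAut cs hp.isCartan w)) b = ∑ j, b j • Th j := by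
        intro b
        conv_lhs => rw [IsMC.eq_sum_sr b]
        rw [map_sum]
        refine Finset.sum_congr rfl fun j _ => ?_
        rw [map_zsmul]
        congr 1
        exact hw j
      funext m
      have h7 : ((g.trans (repAut cs hp.isCartan w)) b) = fun i => ∑ j, b j * Th j i := by
        rw [h6]; funext i; rw [Finset.sum_apply]; rfl
      have h8 : ((g.trans (repAut cs hp.isCartan w)) ((g.trans (repAut cs hp.isCartan w)) b)) m =
          ∑ i, (∑ j, b j * Th j i) * Th i m := by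
        rw [h6 ((g.trans (repAut cs hp.isCartan w)) b), h7, Finset.sum_apply]; rfl
      rw [Pi.add_apply, Pi.add_apply, Pi.smul_apply, h8, h7]
      have h9 : b m = ∑ j, b j * (if j = m then 1 else 0) := by simp
      rw [smul_eq_mul, h9, Pi.zero_apply]
      have h10 : ∑ i, (∑ j, b j * Th j i) * Th i m = ∑ j, b j * ∑ i, Th j i * Th i m := by
        simp only [Finset.sum_mul, Finset.mul_sum]
        rw [Finset.sum_comm]
        exact Finset.sum_congr rfl fun _ _ => Finset.sum_congr rfl fun _ _ => by ring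
      rw [h10, Finset.mul_sum, ← Finset.sum_add_distrib, ← Finset.sum_add_distrib]
      refine Finset.sum_eq_zero fun j _ => ?_
      have := hTh2 j m
      linear_combination b j * this
    have e3 := congrArg (cX hp s) e2
    rw [hmc.zero, hmc.add, hmc.add, hmc.zsmul, e1, e1] at e3
    have h0 := hmc.ne_zero b
    have e4 : cX hp s b ^ (N : ℤ) = 1 := by
      rw [hN, hpv, zpow_add₀ h0, zpow_add₀ h0, zpow_one]
      have e5 : cX hp s b ^ q ^ 2 = (cX hp s b ^ p ^ e) ^ p ^ e := by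
        rw [hq, ← pow_mul, ← zpow_natCast]
        congr 1
        push_cast
        ring
      have e6 : cX hp s b ^ (c 1 * q) = (cX hp s b ^ p ^ e) ^ c 1 := by
        rw [hq, mul_comm, zpow_mul, zpow_natCast]
      rw [e5, e6]
      exact e3
    rwa [zpow_natCast] at e4
  have hinj : ∀ y y' : G0, z⁻¹ * e0 y * z = z⁻¹ * e0 y' * z → y = y' := by
    intro y y' h6
    exact he0 (mul_left_cancel (mul_right_cancel h6))
  refine ⟨x, ?_, fun y hy => ?_, fun y y' hy hy' => ?_, fun s hs => ?_⟩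
  · rw [← orderOf_injective e0 he0, hx, ← h4]
    exact orderOf_injective (MulAut.conj z).toMonoidHom (MulAut.conj z).injective t
  · obtain ⟨h6, h7⟩ := hmem y hy
    have h8 : (z⁻¹ * e0 y * z) ^ N = 1 := by
      refine cX_inj hp (pow_mem h6 N) (one_mem _) fun i => ?_
      rw [cX_pow hp h6, cX_one, hrel _ h6 h7]
    apply he0
    rw [map_pow, map_one]
    have h9 := conj_pow (a := z⁻¹) (b := e0 y) (i := N)
    rw [inv_inv, h8] at h9
    have h10 : e0 y ^ N = z * (z⁻¹ * e0 y ^ N * z) * z⁻¹ := by group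
    rw [h10, ← h9]; group
  · obtain ⟨h6, -⟩ := hmem y hy
    obtain ⟨h7, -⟩ := hmem y' hy'
    have h8 := TT_comm hp _ h6 _ h7
    apply hinj
    rw [map_mul, map_mul]
    calc z⁻¹ * (e0 y * e0 y') * z = z⁻¹ * e0 y * z * (z⁻¹ * e0 y' * z) := by group
      _ = z⁻¹ * e0 y' * z * (z⁻¹ * e0 y * z) := h8
      _ = _ := by group
  · classical
    have : NeZero s := ⟨hs.ne_zero⟩
    let f : {y : G0 // y * x = x * y ∧ y ^ s = 1} → (Fin l → rootsOfUnity s k) := fun y i =>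
      ⟨Units.mk0 (cX hp (z⁻¹ * e0 y.1 * z) (sr i)) ((isMC_cX hp (hmem y.1 y.2.1).1).ne_zero _), by
        rw [mem_rootsOfUnity]
        apply Units.ext
        rw [Units.val_pow_eq_pow_val, Units.val_mk0, Units.val_one, ← cX_pow hp (hmem y.1 y.2.1).1]
        have h9 := conj_pow (a := z⁻¹) (b := e0 y.1) (i := s)
        rw [inv_inv] at h9
        rw [h9, ← map_pow, y.2.2, map_one, mul_one, inv_mul_cancel, cX_one]⟩
    have hf : Function.Injective f := by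
      intro y y' h6
      apply Subtype.ext
      apply hinj
      refine cX_inj hp (hmem y.1 y.2.1).1 (hmem y'.1 y'.2.1).1 fun i => ?_
      exact congrArg (fun u : rootsOfUnity s k => ((u : kˣ) : k)) (congrFun h6 i)
    have h7 := Nat.card_le_card_of_injective f hf
    rw [Nat.card_fun] at h7
    refine h7.trans ?_
    rw [Nat.card_fin]
    refine Nat.pow_le_pow_left ?_ l
    exact card_rootsOfUnity k s

end Alg

section Inst

/-- the partial products, class 3 -/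
def L3 : List (Fin 4 × Mat 4) := [
    (2, ![![-1, -1, 0, -1], ![0, -1, -1, 0], ![0, 1, 1, 1], ![0, 1, 0, 0]]),
    (0, ![![-1, -1, -1, -1], ![0, -1, 0, 0], ![0, 1, 0, 1], ![0, 1, 1, 0]]),
    (1, ![![0, -1, -1, -1], ![-1, -1, 0, 0], ![1, 1, 0, 1], ![1, 1, 1, 0]]),
    (3, ![![0, -1, -1, -1], ![-1, 0, 0, 0], ![1, 1, 0, 1], ![1, 1, 1, 0]]),
    (2, ![![0, -1, -1, 0], ![-1, 0, 0, 0], ![1, 1, 0, 0], ![1, 1, 1, 1]]),
    (0, ![![0, -1, 0, 0], ![-1, 0, 0, 0], ![1, 1, 1, 0], ![1, 1, 0, 1]]),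
    (1, ![![-1, -1, 0, 0], ![1, 0, 0, 0], ![0, 1, 1, 0], ![0, 1, 0, 1]]),
    (0, ![![-1, 0, 0, 0], ![1, 1, 0, 0], ![0, 0, 1, 0], ![0, 0, 0, 1]])]

/-- the matrix, class 3 -/
def M3 : Mat 4 := ![![0, 1, 1, 1], ![0, -1, -1, 0], ![0, 1, 0, 0], ![-1, -1, 0, -1]]

/-- the regular eigenfunctional, class 3 -/
def V3 : Fin 2 → Fin 4 → ℤ := ![![-1, 0, -1, 1], ![0, -1, 0, 0]]

/-- the partial products, class 6 -/
def L6 : List (Fin 4 × Mat 4) := [
    (2, ![![0, -1, -1, 0], ![-1, 0, 0, 0], ![1, 1, 0, 0], ![1, 1, 1, 1]]),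
    (0, ![![0, -1, 0, 0], ![-1, 0, 0, 0], ![1, 1, 1, 0], ![1, 1, 0, 1]]),
    (1, ![![-1, -1, 0, 0], ![1, 0, 0, 0], ![0, 1, 1, 0], ![0, 1, 0, 1]]),
    (0, ![![-1, 0, 0, 0], ![1, 1, 0, 0], ![0, 0, 1, 0], ![0, 0, 0, 1]])]

/-- the matrix, class 6 -/
def M6 : Mat 4 := ![![1, 1, 0, 0], ![-1, 0, 0, 0], ![1, 1, 1, 1], ![0, -1, -1, 0]]

/-- the regular eigenfunctional, class 6 -/
def V6 : Fin 2 → Fin 4 → ℤ := ![![0, 1, 0, 0], ![-1, 0, -1, 1]]

theorem ch3 : ChainOK Cfsg.Agent.H493.PGD4T.Am L3 := by decide +kernel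
theorem th3 : ∀ j, hd L3 (Cfsg.Agent.H493.PGD4T.pi j) = M3 j := by decide +kernel
theorem eig3 : EigOK (f := 1) (fun i j => M3 j i) c3 V3 ![-1, 0, 0, 0] := by decide +kernel
theorem sq3 : ∀ j m, ∑ i, M3 j i * M3 i m + c3 1 * M3 j m + (if j = m then 1 else 0) = 0 := by decide +kernel
theorem ch6 : ChainOK Cfsg.Agent.H493.PGD4T.Am L6 := by decide +kernel
theorem th6 : ∀ j, hd L6 (Cfsg.Agent.H493.PGD4T.pi j) = M6 j := by decide +kernel
theorem eig6 : EigOK (f := 1) (fun i j => M6 j i) c6 V6 ![0, 1, 0, 0] := by decide +kernel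
theorem sq6 : ∀ j m, ∑ i, M6 j i * M6 i m + c6 1 * M6 j m + (if j = m then 1 else 0) = 0 := by decide +kernel

/-- the check of the norms -/
def NormOK (c : Fin 2 → ℤ) (V : Fin 2 → Fin 4 → ℤ) : Prop := ∀ s : Fin 24,
  (∑ m, vec chevD4 4 s.val m * V 0 m) * (∑ m, vec chevD4 4 s.val m * V 0 m) -
    c 1 * (∑ m, vec chevD4 4 s.val m * V 0 m) * (∑ m, vec chevD4 4 s.val m * V 1 m) +
    (∑ m, vec chevD4 4 s.val m * V 1 m) * (∑ m, vec chevD4 4 s.val m * V 1 m) = 1 ∨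
  (∑ m, vec chevD4 4 s.val m * V 0 m) * (∑ m, vec chevD4 4 s.val m * V 0 m) -
    c 1 * (∑ m, vec chevD4 4 s.val m * V 0 m) * (∑ m, vec chevD4 4 s.val m * V 1 m) +
    (∑ m, vec chevD4 4 s.val m * V 1 m) * (∑ m, vec chevD4 4 s.val m * V 1 m) = 3

instance (c : Fin 2 → ℤ) (V : Fin 2 → Fin 4 → ℤ) : Decidable (NormOK c V) := by unfold NormOK; infer_instance

theorem norm3 : NormOK c3 V3 := by decide +kernel
theorem norm6 : NormOK c6 V6 := by decide +kernel

theorem reg_gen {K : Type u} [Field K] [Fintype K] {q : ℕ} (hq : IsPrimePow q) (hK : Fintype.card K = q ^ 3)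
    {L : List (Fin 4 × Mat 4)} (hL : ChainOK H493.PGD4T.Am L) {Th : Mat 4} (hTh : ∀ j, hd L (H493.PGD4T.pi j) = Th j)
    {c : Fin 2 → ℤ} {V : Fin 2 → Fin 4 → ℤ} {U : Fin 4 → ℤ} (h : EigOK (f := 1) (fun i j => Th j i) c V U)
    (hc0 : c 0 = 1) (hc1 : c 1 = 1 ∨ c 1 = -1)
    (hTh2 : ∀ j m, ∑ i, Th j i * Th i m + c 1 * Th j m + (if j = m then 1 else 0) = 0) (hnorm : NormOK c V)
    {r : ℕ} (hr : r.Prime) (h5 : 5 ≤ r) {N : ℕ} (hN : (N : ℤ) = pv c (q : ℤ)) (hrN : r ∣ N) :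
    ∃ x : ↥(twistedD4 K q), RegE ↥(twistedD4 K q) 4 N r x := by
  have := H493.PGD4T.finW
  obtain ⟨p, e, hpF, hpk, he, hqe, hk⟩ := H493.PGD4T.setup hq hK
  have hqe' : (q : ℤ) = ((p ^ e : ℕ) : ℤ) := by rw [hqe]
  refine reg_of RGDTwD4.hp coxeterD4.toCoxeterSystem hk he isFrob_tau (fr_tau _) TorusChar.invC_D4
    (by norm_num) (embT_injective (algebraMap K (AlgebraicClosure K)) hq hK)
    (fun y => tau_embT _ hqe hq hK y) (fun y hy => tau_range _ hqe hq hK hy)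
    (H493.PGD4T.lin _ hL hTh) h hc0 hTh2 (fun a ha => ?_) hc1 hr h5 ?_ (by rw [hN, hqe']) hrN
  · obtain ⟨s, hs, rfl⟩ := (isRoot_iff RGDTwD4.hp coxeterD4.toCoxeterSystem a).1 ha
    refine ⟨_, _, ?_, hnorm ⟨s, hs⟩⟩
    have key : ∀ m, vval (f := 1) V ((p ^ e : ℕ) : ℤ) m = V 0 m + V 1 m * ((p ^ e : ℕ) : ℤ) := by
      intro m
      show ∑ i : Fin 2, ((p ^ e : ℕ) : ℤ) ^ (i : ℕ) * V i m = _
      rw [Fin.sum_univ_two]
      simp
      ring
    rw [lam_apply, Finset.sum_mul, ← Finset.sum_add_distrib]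
    refine Finset.sum_congr rfl fun m _ => ?_
    rw [key]
    ring
  · have hW : Nat.card coxeterD4.Group = 192 :=
      ChevalleyStructure.WeylData.certD4.card_group.trans ChevalleyStructure.WeylData.size_D4
    rw [hW]
    intro h6
    have h2 : (192 : ℕ) = 2 ^ 6 * 3 := by norm_num
    rw [h2] at h6
    rcases (Nat.Prime.dvd_mul hr).1 h6 with h | h
    · have := Nat.le_of_dvd (by norm_num) (hr.dvd_of_dvd_pow h)
      omega
    · have := Nat.le_of_dvd (by norm_num) h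
      omega

variable {K : Type u} [Field K] [Fintype K] {q : ℕ} (hq : IsPrimePow q) (hK : Fintype.card K = q ^ 3) {r : ℕ}
  (hr : r.Prime) (h5 : 5 ≤ r)

include hq hK hr h5

/-- **Regular elements, `q² + q + 1`.** -/
theorem exists_reg3 (hrN : r ∣ q ^ 2 + q + 1) :
    ∃ x : ↥(twistedD4 K q), RegE ↥(twistedD4 K q) 4 (q ^ 2 + q + 1) r x :=
  reg_gen hq hK ch3 th3 eig3 rfl (Or.inl rfl) sq3 norm3 hr h5 (by rw [pv3]; push_cast; ring) hrN

/-- **Regular elements, `q² - q + 1`.** -/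
theorem exists_reg6 (hrN : r ∣ q ^ 2 - q + 1) :
    ∃ x : ↥(twistedD4 K q), RegE ↥(twistedD4 K q) 4 (q ^ 2 - q + 1) r x :=
  reg_gen hq hK ch6 th6 eig6 rfl (Or.inr rfl) sq6 norm6 hr h5 (by
    rw [pv6, Nat.cast_add, Nat.cast_sub (Nat.le_self_pow (by norm_num) q)]; push_cast; ring) hrN

end Inst

end Cfsg.Agent.H92.TD
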