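import Cfsg.Agent.H264.FKS.Names

/-!
# The part of the order of a group of Lie type at a primitive prime of the top exponent (helper92, S2499)

`top_all` : if `s` is a primitive prime of the top exponent `f₁ M` of the order `c` and `s ^ k ∣ c`, then
`s ^ k ∣ p ^ (f₁ M) - 1`.
-/

set_option autoImplicit false

namespace Cfsg.Agent.H92.TD

open Cfsg.Agent.OrdDiv Cfsg.Agent.H436 Cfsg.Agent.H915.GN Cfsg.Agent.H264.GN Cfsg.Agent.H264.FKS

variable {p f c s k M a : ℕ}

theorem top_aux {A B : ℕ} (hs : s.Prime) (h : s ^ k ∣ A * B) (hA : ¬ s ∣ A) : s ^ k ∣ B :=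
  (Nat.Coprime.pow_left k ((Nat.Prime.coprime_iff_not_dvd hs).2 hA)).dvd_of_dvd_mul_left h

theorem mul_iff (hf : 1 ≤ f) {x : ℕ} : f * M ∣ f * x ↔ M ∣ x := Nat.mul_dvd_mul_iff_left (by omega)

theorem top_list {L : List ℕ} (hf : 1 ≤ f) (hs : Prim p (f * M) s) (hM : M ∈ L) (hL : ∀ d ∈ L.erase M, ¬ M ∣ d)
    (hc : c ∣ (p ^ f) ^ a * (L.map fun d => (p ^ f) ^ d - 1).prod) (hk : s ^ k ∣ c) : s ^ k ∣ p ^ (f * M) - 1 := by
  have h1 := hk.trans hc
  rw [← List.prod_map_erase (fun d => (p ^ f) ^ d - 1) hM, ← mul_assoc, mul_right_comm] at h1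
  rw [pow_mul]
  refine top_aux hs.prime h1 fun h3 => ?_
  rcases hs.prime.dvd_mul.1 h3 with h4 | h4
  · rw [← pow_mul] at h4
    exact hs.not_dvd_pow _ h4
  · rw [Prime.dvd_prod_iff hs.prime.prime] at h4
    obtain ⟨y, hy, hd⟩ := h4
    rw [List.mem_map] at hy
    obtain ⟨x, hx, rfl⟩ := hy
    rw [← pow_mul, hs.dvd_iff, mul_iff hf] at hd
    exact hL x hx hd

theorem top_range {n j : ℕ} {F : ℕ → ℕ} (hf : 1 ≤ f) (hs : Prim p (f * M) s) (hj : j < n)
    (hF : ∀ i < n, i ≠ j → ∃ x, F i ∣ (p ^ f) ^ x - 1 ∧ ¬ M ∣ x) (h0 : F j ∣ (p ^ f) ^ M - 1)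
    (hc : c ∣ (p ^ f) ^ a * ∏ i ∈ Finset.range n, F i) (hk : s ^ k ∣ c) : s ^ k ∣ p ^ (f * M) - 1 := by
  have h1 := hk.trans hc
  rw [← Finset.mul_prod_erase _ _ (Finset.mem_range.2 hj), mul_left_comm, mul_comm] at h1
  rw [pow_mul]
  refine (top_aux hs.prime h1 fun h3 => ?_).trans h0
  rcases hs.prime.dvd_mul.1 h3 with h4 | h4
  · rw [← pow_mul] at h4
    exact hs.not_dvd_pow _ h4
  · rw [Prime.dvd_finsetProd_iff hs.prime.prime] at h4
    obtain ⟨i, hi, hd⟩ := h4
    rw [Finset.mem_erase, Finset.mem_range] at hi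
    obtain ⟨x, hx, hx2⟩ := hF i hi.2 hi.1
    have h5 := hd.trans hx
    rw [← pow_mul, hs.dvd_iff, mul_iff hf] at h5
    exact hx2 h5

/-- **The top part.** -/
theorem top_all {g : Grp} (hp : p.Prime) (hg : Cond g) (hch : HasChar p g) (hc : den g * c = num g) (hf : 1 ≤ f)
    (hfl : fld g = p ^ f) (hs : Prim p (f * Mg g) s) (hk : s ^ k ∣ c) : s ^ k ∣ p ^ (f * Mg g) - 1 := by
  have hcn : c ∣ num g := by rw [← hc]; exact Dvd.intro_left _ rfl
  cases g
  case psl m q =>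
    obtain rfl : q = p ^ f := hfl
    obtain ⟨hm, hm2, hq⟩ := hg
    have h1 : c ∣ glN m (p ^ f) := hcn
    rw [glN_eq] at h1
    refine top_range (j := m - 1) hf hs (show m - 1 < m by omega) (fun i hi hne => ⟨i + 1, dvd_rfl, fun h => ?_⟩) ?_ h1 hk
    · have := Nat.le_of_dvd (by omega) h
      have : Mg (.psl m (p ^ f)) = m := rfl
      omega
    · rw [Nat.sub_add_cancel (by omega)]; exact dvd_rfl
  case psp m q =>
    obtain rfl : q = p ^ f := hfl
    obtain ⟨hm, hm2, hq⟩ := hg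
    have h1 : c ∣ (p ^ f) ^ (m ^ 2) * prB (p ^ f) m := hcn
    rw [prB_eq] at h1
    refine top_range (j := m - 1) hf hs (show m - 1 < m by omega) (fun i hi hne => ⟨2 * (i + 1), dvd_rfl, fun h => ?_⟩)
      ?_ h1 hk
    · have := Nat.le_of_dvd (by omega) h
      have : Mg (.psp m (p ^ f)) = 2 * m := rfl
      omega
    · rw [Nat.sub_add_cancel (by omega)]; exact dvd_rfl
  case psu m q =>
    obtain rfl : q = p ^ f := hfl
    obtain ⟨hm, hm2, hq⟩ := hg
    have h1 : c ∣ (p ^ f) ^ (m * (m - 1) / 2) * prU (p ^ f) m := hcn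
    unfold prU at h1
    rw [prod_list] at h1
    have hMg : Mg (.psu m (p ^ f)) = 2 * (if m % 2 = 0 then m - 1 else m) := rfl
    refine top_range (j := (if m % 2 = 0 then m - 1 else m) - 1) hf hs
      (show (if m % 2 = 0 then m - 1 else m) - 1 < m by split_ifs <;> omega) (fun i hi hne => ?_) ?_ h1 hk
    · rcases Nat.even_or_odd i with h2 | h2
      · have h3 : i % 2 = 0 := Nat.even_iff.1 h2
        refine ⟨2 * (i + 1), ?_, fun h => ?_⟩
        · rw [if_pos (by rw [h3]; rfl)]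
          exact add_dvd _ _
        · have h4 := Nat.le_of_dvd (by omega) h
          rw [hMg] at h4
          split_ifs at h4 hne <;> omega
      · have h3 : i % 2 = 1 := Nat.odd_iff.1 h2
        refine ⟨i + 1, ?_, fun h => ?_⟩
        · rw [if_neg (by rw [h3]; decide)]
        · have h4 := Nat.le_of_dvd (by omega) h
          rw [hMg] at h4
          split_ifs at h4 hne <;> omega
    · rw [hMg]
      have h5 : ((if m % 2 = 0 then m - 1 else m) - 1) % 2 = 0 := by split_ifs <;> omega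
      have h6 : (if m % 2 = 0 then m - 1 else m) - 1 + 1 = if m % 2 = 0 then m - 1 else m := by split_ifs <;> omega
      rw [if_pos (by rw [h5]; rfl), h6]
      exact add_dvd _ _
  case oodd m q =>
    obtain rfl : q = p ^ f := hfl
    obtain ⟨hm, hm2, hq⟩ := hg
    have h1 : c ∣ (p ^ f) ^ (m ^ 2) * prB (p ^ f) m := hcn
    rw [prB_eq] at h1
    refine top_range (j := m - 1) hf hs (show m - 1 < m by omega) (fun i hi hne => ⟨2 * (i + 1), dvd_rfl, fun h => ?_⟩)
      ?_ h1 hk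
    · have := Nat.le_of_dvd (by omega) h
      have : Mg (.oodd m (p ^ f)) = 2 * m := rfl
      omega
    · rw [Nat.sub_add_cancel (by omega)]; exact dvd_rfl
  case oplus m q =>
    obtain rfl : q = p ^ f := hfl
    obtain ⟨hm, hq⟩ := hg
    have h1 : c ∣ (p ^ f) ^ (m * (m - 1)) * (((p ^ f) ^ m - 1) * prB (p ^ f) (m - 1)) := hcn
    rw [prB_eq] at h1
    have hMg : Mg (.oplus m (p ^ f)) = 2 * (m - 1) := rfl
    have h2 : c ∣ (p ^ f) ^ (m * (m - 1)) * ∏ i ∈ Finset.range m, (if i < m - 1 then (p ^ f) ^ (2 * (i + 1)) - 1 else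
        (p ^ f) ^ m - 1) := by
      refine h1.trans (dvd_of_eq ?_)
      congr 1
      obtain ⟨n, rfl⟩ : ∃ n, m = n + 1 := ⟨m - 1, by omega⟩
      rw [Finset.prod_range_succ, mul_comm, Nat.add_sub_cancel]
      congr 1
      · exact Finset.prod_congr rfl fun i hi => by rw [if_pos (Finset.mem_range.1 hi)]
      · rw [if_neg (lt_irrefl _)]
    refine top_range (j := m - 2) hf hs (show m - 2 < m by omega) (fun i hi hne => ?_) ?_ h2 hk
    · by_cases h3 : i < m - 1
      · refine ⟨2 * (i + 1), by rw [if_pos h3], fun h => ?_⟩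
        have h4 := Nat.le_of_dvd (by omega) h
        omega
      · refine ⟨m, by rw [if_neg h3], fun h => ?_⟩
        have h4 := Nat.le_of_dvd (by omega) h
        omega
    · rw [if_pos (by omega), hMg, show m - 2 + 1 = m - 1 by omega]
  case ominus m q =>
    obtain rfl : q = p ^ f := hfl
    obtain ⟨hm, hq⟩ := hg
    have h1 : c ∣ (p ^ f) ^ (m * (m - 1)) * (((p ^ f) ^ m + 1) * prB (p ^ f) (m - 1)) := hcn
    rw [prB_eq] at h1
    have hMg : Mg (.ominus m (p ^ f)) = 2 * m := rfl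
    have h2 : c ∣ (p ^ f) ^ (m * (m - 1)) * ∏ i ∈ Finset.range m, (if i < m - 1 then (p ^ f) ^ (2 * (i + 1)) - 1 else
        (p ^ f) ^ m + 1) := by
      refine h1.trans (dvd_of_eq ?_)
      congr 1
      obtain ⟨n, rfl⟩ : ∃ n, m = n + 1 := ⟨m - 1, by omega⟩
      rw [Finset.prod_range_succ, mul_comm, Nat.add_sub_cancel]
      congr 1
      · exact Finset.prod_congr rfl fun i hi => by rw [if_pos (Finset.mem_range.1 hi)]
      · rw [if_neg (lt_irrefl _)]
    refine top_range (j := m - 1) hf hs (show m - 1 < m by omega) (fun i hi hne => ?_) ?_ h2 hk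
    · have h3 : i < m - 1 := by omega
      refine ⟨2 * (i + 1), by rw [if_pos h3], fun h => ?_⟩
      have h4 := Nat.le_of_dvd (by omega) h
      omega
    · rw [if_neg (by omega), hMg]
      exact add_dvd _ _
  case g2 q =>
    obtain rfl : q = p ^ f := hfl
    have h : c ∣ (p ^ f) ^ 6 * (((p ^ f) ^ 2 - 1) * ((p ^ f) ^ 6 - 1)) := hcn
    have h2 : c ∣ (p ^ f) ^ 6 * ([2, 6].map fun d => (p ^ f) ^ d - 1).prod := by
      simpa only [List.map_cons, List.map_nil, List.prod_cons, List.prod_nil, mul_one] using h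
    exact top_list (M := 6) hf hs (by decide) (by decide) h2 hk
  case f4 q =>
    obtain rfl : q = p ^ f := hfl
    have h : c ∣ (p ^ f) ^ 24 * (((p ^ f) ^ 2 - 1) * ((p ^ f) ^ 6 - 1) * ((p ^ f) ^ 8 - 1) *
      ((p ^ f) ^ 12 - 1)) := hcn
    have h2 : c ∣ (p ^ f) ^ 24 * ([2, 6, 8, 12].map fun d => (p ^ f) ^ d - 1).prod := by
      simpa only [List.map_cons, List.map_nil, List.prod_cons, List.prod_nil, mul_one, mul_assoc] using h
    exact top_list (M := 12) hf hs (by decide) (by decide) h2 hk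
  case e6 q =>
    obtain rfl : q = p ^ f := hfl
    have h : c ∣ (p ^ f) ^ 36 * (((p ^ f) ^ 2 - 1) * ((p ^ f) ^ 5 - 1) * ((p ^ f) ^ 6 - 1) *
      ((p ^ f) ^ 8 - 1) * ((p ^ f) ^ 9 - 1) * ((p ^ f) ^ 12 - 1)) := hcn
    have h2 : c ∣ (p ^ f) ^ 36 * ([2, 5, 6, 8, 9, 12].map fun d => (p ^ f) ^ d - 1).prod := by
      simpa only [List.map_cons, List.map_nil, List.prod_cons, List.prod_nil, mul_one, mul_assoc] using h
    exact top_list (M := 12) hf hs (by decide) (by decide) h2 hk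
  case e7 q =>
    obtain rfl : q = p ^ f := hfl
    have h : c ∣ (p ^ f) ^ 63 * (((p ^ f) ^ 2 - 1) * ((p ^ f) ^ 6 - 1) *
      ((p ^ f) ^ 8 - 1) * ((p ^ f) ^ 10 - 1) * ((p ^ f) ^ 12 - 1) * ((p ^ f) ^ 14 - 1) *
      ((p ^ f) ^ 18 - 1)) := hcn
    have h2 : c ∣ (p ^ f) ^ 63 * ([2, 6, 8, 10, 12, 14, 18].map fun d => (p ^ f) ^ d - 1).prod := by
      simpa only [List.map_cons, List.map_nil, List.prod_cons, List.prod_nil, mul_one, mul_assoc] using h
    exact top_list (M := 18) hf hs (by decide) (by decide) h2 hk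
  case e8 q =>
    obtain rfl : q = p ^ f := hfl
    have h : c ∣ (p ^ f) ^ 120 * (((p ^ f) ^ 2 - 1) * ((p ^ f) ^ 8 - 1) * ((p ^ f) ^ 12 - 1) *
      ((p ^ f) ^ 14 - 1) * ((p ^ f) ^ 18 - 1) * ((p ^ f) ^ 20 - 1) * ((p ^ f) ^ 24 - 1) *
      ((p ^ f) ^ 30 - 1)) := hcn
    have h2 : c ∣ (p ^ f) ^ 120 * ([2, 8, 12, 14, 18, 20, 24, 30].map fun d => (p ^ f) ^ d - 1).prod := by
      simpa only [List.map_cons, List.map_nil, List.prod_cons, List.prod_nil, mul_one, mul_assoc] using h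
    exact top_list (M := 30) hf hs (by decide) (by decide) h2 hk
  case te6 q =>
    obtain rfl : q = p ^ f := hfl
    have h : c ∣ (p ^ f) ^ 36 * (((p ^ f) ^ 2 - 1) * ((p ^ f) ^ 5 + 1) * ((p ^ f) ^ 6 - 1) *
      ((p ^ f) ^ 8 - 1) * ((p ^ f) ^ 9 + 1) * ((p ^ f) ^ 12 - 1)) := hcn
    have h2 : c ∣ (p ^ f) ^ 36 * ([2, 10, 6, 8, 18, 12].map fun d => (p ^ f) ^ d - 1).prod := by
      refine h.trans (Nat.mul_dvd_mul_left _ ?_)
      simp only [List.map_cons, List.map_nil, List.prod_cons, List.prod_nil, mul_one]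
      have h1 := add_dvd (p ^ f) 5
      have h2 := add_dvd (p ^ f) 9
      norm_num only at h1 h2
      rw [mul_assoc, mul_assoc, mul_assoc, mul_assoc]
      exact Nat.mul_dvd_mul_left _ (Nat.mul_dvd_mul h1 (Nat.mul_dvd_mul_left _ (Nat.mul_dvd_mul_left _
        (Nat.mul_dvd_mul_right h2 _))))
    exact top_list (M := 18) hf hs (by decide) (by decide) h2 hk
  case td4 q =>
    obtain rfl : q = p ^ f := hfl
    have hQ : 1 ≤ p ^ f := Nat.one_le_pow _ _ hp.pos
    have h : c ∣ (p ^ f) ^ 12 * (((p ^ f) ^ 2 - 1) * ((p ^ f) ^ 6 - 1) * ((p ^ f) ^ 8 + (p ^ f) ^ 4 + 1)) := hcn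
    have h2 : c ∣ (p ^ f) ^ 12 * ([2, 6, 12].map fun d => (p ^ f) ^ d - 1).prod := by
      refine h.trans (Nat.mul_dvd_mul_left _ ?_)
      simp only [List.map_cons, List.map_nil, List.prod_cons, List.prod_nil, mul_one]
      rw [mul_assoc ((p ^ f) ^ 2 - 1)]
      refine Nat.mul_dvd_mul_left _ (Nat.mul_dvd_mul_left _ ?_)
      rw [td4_eq hQ]
      exact Dvd.intro _ rfl
    exact top_list (M := 12) hf hs (by decide) (by decide) h2 hk
  case sz q =>
    obtain rfl : q = p ^ f := hfl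
    have h : c ∣ (p ^ f) ^ 2 * ((p ^ f - 1) * ((p ^ f) ^ 2 + 1)) := hcn
    have h2 : c ∣ (p ^ f) ^ 2 * ([1, 4].map fun d => (p ^ f) ^ d - 1).prod := by
      refine h.trans (Nat.mul_dvd_mul_left _ ?_)
      simp only [List.map_cons, List.map_nil, List.prod_cons, List.prod_nil, mul_one]
      have h1 := add_dvd (p ^ f) 2
      norm_num only at h1
      rw [pow_one]
      exact Nat.mul_dvd_mul_left _ h1
    exact top_list (M := 4) hf hs (by decide) (by decide) h2 hk
  case ree q =>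
    obtain rfl : q = p ^ f := hfl
    have h : c ∣ (p ^ f) ^ 3 * ((p ^ f - 1) * ((p ^ f) ^ 3 + 1)) := hcn
    have h2 : c ∣ (p ^ f) ^ 3 * ([1, 6].map fun d => (p ^ f) ^ d - 1).prod := by
      refine h.trans (Nat.mul_dvd_mul_left _ ?_)
      simp only [List.map_cons, List.map_nil, List.prod_cons, List.prod_nil, mul_one]
      have h1 := add_dvd (p ^ f) 3
      norm_num only at h1
      rw [pow_one]
      exact Nat.mul_dvd_mul_left _ h1
    exact top_list (M := 6) hf hs (by decide) (by decide) h2 hk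
  case tf4 q =>
    obtain rfl : q = p ^ f := hfl
    have h : c ∣ (p ^ f) ^ 12 * ((p ^ f - 1) * ((p ^ f) ^ 3 + 1) * ((p ^ f) ^ 4 - 1) * ((p ^ f) ^ 6 + 1)) := hcn
    have h2 : c ∣ (p ^ f) ^ 12 * ([1, 6, 4, 12].map fun d => (p ^ f) ^ d - 1).prod := by
      refine h.trans (Nat.mul_dvd_mul_left _ ?_)
      simp only [List.map_cons, List.map_nil, List.prod_cons, List.prod_nil, mul_one]
      have h1 := add_dvd (p ^ f) 3
      have h2 := add_dvd (p ^ f) 6
      norm_num only at h1 h2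
      rw [mul_assoc, mul_assoc, pow_one]
      exact Nat.mul_dvd_mul_left _ (Nat.mul_dvd_mul h1 (Nat.mul_dvd_mul_left _ h2))
    exact top_list (M := 12) hf hs (by decide) (by decide) h2 hk
  all_goals exact absurd hch not_false

end Cfsg.Agent.H92.TD
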